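import Mathlib
import Cfsg.Agent.Local.ZasOrd
import Cfsg.Agent.Local.SL23

/-! Irrational pairs of elements of order three: explicit computations. -/

set_option autoImplicit false

namespace Cfsg.Agent.Local

/-- coordinates with respect to `1, α, γ, αγ, S, Sα, Sγ, Sαγ` -/
structure V8 where
  v0 : ℤ
  v1 : ℤ
  v2 : ℤ
  v3 : ℤ
  w0 : ℤ
  w1 : ℤ
  w2 : ℤ
  w3 : ℤ
  deriving DecidableEq

namespace V8

/-- right multiplication by `α` -/
def ra (v : V8) : V8 :=
  ⟨-v.v1 - v.v2 + v.v3 + v.w2, v.v0 - v.v1 - v.v2 + v.w3, v.v3 - v.v2, -v.v2,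
    v.v2 - v.w1 + v.w3, v.v3 + v.w0 - v.w1 - v.w2 + v.w3, v.w3 - v.w2, -v.w2⟩

/-- right multiplication by `γ` -/
def rc (v : V8) : V8 :=
  ⟨-v.v2, -v.v3, v.v0 - v.v2, v.v1 - v.v3, -v.w2, -v.w3, v.w0 - v.w2, v.w1 - v.w3⟩

/-- the unit -/
def one : V8 := ⟨1, 0, 0, 0, 0, 0, 0, 0⟩

/-- minus one -/
def negOne : V8 := ⟨-1, 0, 0, 0, 0, 0, 0, 0⟩

/-- sum -/
def add (v w : V8) : V8 :=
  ⟨v.v0 + w.v0, v.v1 + w.v1, v.v2 + w.v2, v.v3 + w.v3, v.w0 + w.w0, v.w1 + w.w1, v.w2 + w.w2,
    v.w3 + w.w3⟩

/-- evaluation of a word -/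
def ev (l : List Bool) (v : V8) : V8 := l.foldl (fun v b => cond b v.rc v.ra) v

variable {A : Type*} [Ring A]

/-- the element of the ring -/
def psi (α γ S : A) (v : V8) : A :=
  v.v0 • 1 + v.v1 • α + v.v2 • γ + v.v3 • (α * γ) + v.w0 • S + v.w1 • (S * α) + v.w2 • (S * γ) +
    v.w3 • (S * (α * γ))

theorem psi_one (α γ S : A) : psi α γ S one = 1 := by simp [psi, one]

theorem psi_negOne (α γ S : A) : psi α γ S negOne = -1 := by simp [psi, negOne]

theorem psi_add (α γ S : A) (v w : V8) : psi α γ S (v.add w) = psi α γ S v + psi α γ S w := by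
  simp only [psi, add]
  module

theorem psi_rc {α γ : A} (S : A) (hγ : γ * γ = -1 - γ) (v : V8) :
    psi α γ S v * γ = psi α γ S v.rc := by
  simp only [psi, rc, add_mul, smul_mul_assoc, mul_assoc, hγ, mul_sub, mul_neg, mul_one, one_mul]
  module

theorem psi_ra {α γ : A} (hα : α * α = -1 - α)
    (hS : sig3 α γ * sig3 α γ = sig3 α γ + 1) (v : V8) :
    psi α γ (sig3 α γ) v * α = psi α γ (sig3 α γ) v.ra := by
  have h2 : γ * α = sig3 α γ - α * γ - α - γ - 1 := by rw [sig3]; abel
  have h0 : α * sig3 α γ = sig3 α γ * α := by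
    rw [sig3]
    linear_combination (norm := noncomm_ring) hα * γ - γ * hα
  have h3 : α * γ * α = sig3 α γ * α + γ + 1 := by
    rw [← h0, sig3]
    linear_combination (norm := noncomm_ring) -hα * γ - hα
  generalize sig3 α γ = S at *
  have h5 : S * γ * α = 1 - S * (α * γ) - S * α - S * γ := by
    linear_combination (norm := noncomm_ring) S * h2 + hS
  have h6 : S * (α * γ) * α = S * α + α + S * γ + S := by
    linear_combination (norm := noncomm_ring) S * h3 + hS * α
  have h4 : S * α * α = -S - S * α := by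
    linear_combination (norm := noncomm_ring) S * hα
  simp only [psi, ra, add_mul, smul_mul_assoc, one_mul, hα, h3, h4, h5, h6]
  rw [h2]
  module

end V8

/-- a word in two group elements -/
def wd {G : Type*} [Group G] (a c : G) (l : List Bool) (g : G) : G :=
  l.foldl (fun g b => g * cond b c a) g

theorem wd_eq {G : Type*} [Group G] (a c : G) (l : List Bool) (g : G) :
    wd a c l g = g * wd a c l 1 := by
  induction l generalizing g with
  | nil => simp [wd]
  | cons b l ih =>
    change wd a c l (g * _) = g * wd a c l (1 * _)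
    rw [ih, ih (1 * _), one_mul, mul_assoc]

variable {G A : Type*} [Group G] [Finite G] [Ring A] [Algebra ℚ A] [Nontrivial A] {ρ : G →* A}
  (hρ : NormZero ρ) {a c : G} (ha : orderOf a = 3) (hc : orderOf c = 3)
  (hS : sig3 (ρ a) (ρ c) * sig3 (ρ a) (ρ c) = sig3 (ρ a) (ρ c) + 1)
include hρ ha hc hS

omit [Finite G] [Algebra ℚ A] [Nontrivial A] in
theorem NormZero.map_wd (l : List Bool) (g : G) (v : V8)
    (h : ρ g = V8.psi (ρ a) (ρ c) (sig3 (ρ a) (ρ c)) v) :
    ρ (wd a c l g) = V8.psi (ρ a) (ρ c) (sig3 (ρ a) (ρ c)) (V8.ev l v) := by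
  induction l generalizing g v with
  | nil => exact h
  | cons b l ih =>
    refine ih _ _ ?_
    cases b
    · exact (map_mul ρ g a).trans (by rw [h, V8.psi_ra (hρ.of_three ha) hS]; rfl)
    · exact (map_mul ρ g c).trans (by rw [h, V8.psi_rc _ (hρ.of_three hc)]; rfl)

omit [Finite G] [Algebra ℚ A] [Nontrivial A] in
theorem NormZero.map_wd_one (l : List Bool) :
    ρ (wd a c l 1) = V8.psi (ρ a) (ρ c) (sig3 (ρ a) (ρ c)) (V8.ev l V8.one) :=
  hρ.map_wd ha hc hS l 1 _ (by rw [map_one, V8.psi_one])

theorem NormZero.wd_eq_wd (l l' : List Bool) (h : V8.ev l V8.one = V8.ev l' V8.one) :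
    wd a c l 1 = wd a c l' 1 :=
  hρ.injective (by rw [hρ.map_wd_one ha hc hS, hρ.map_wd_one ha hc hS, h])

omit [Finite G] [Algebra ℚ A] [Nontrivial A] in
theorem NormZero.map_wd_pow (l : List Bool) (n : ℕ) :
    ρ (wd a c l 1 ^ n) = V8.psi (ρ a) (ρ c) (sig3 (ρ a) (ρ c)) ((V8.ev l)^[n] V8.one) := by
  induction n with
  | zero => rw [pow_zero, map_one, Function.iterate_zero_apply, V8.psi_one]
  | succ n ih =>
    rw [pow_succ, ← wd_eq, Function.iterate_succ_apply']
    exact hρ.map_wd ha hc hS l _ _ ih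

theorem NormZero.wd_pow_eq_one (l : List Bool) (n : ℕ) (h : (V8.ev l)^[n] V8.one = V8.one) :
    wd a c l 1 ^ n = 1 :=
  hρ.injective (by rw [hρ.map_wd_pow ha hc hS, h, V8.psi_one, map_one])

omit [Finite G] [Algebra ℚ A] [Nontrivial A] in
theorem NormZero.sig3_wd (l l' : List Bool) (h : ((((V8.ev l' (V8.ev l V8.one)).add
      (V8.ev l (V8.ev l' V8.one))).add (V8.ev l V8.one)).add (V8.ev l' V8.one)) = V8.negOne) :
    sig3 (ρ (wd a c l 1)) (ρ (wd a c l' 1)) = 0 := by
  rw [sig3, ← map_mul, ← map_mul, ← wd_eq, ← wd_eq,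
    hρ.map_wd ha hc hS l' _ _ (hρ.map_wd_one ha hc hS l),
    hρ.map_wd ha hc hS l _ _ (hρ.map_wd_one ha hc hS l'), hρ.map_wd_one ha hc hS,
    hρ.map_wd_one ha hc hS, ← V8.psi_add, ← V8.psi_add, ← V8.psi_add, h, V8.psi_negOne,
    neg_add_cancel]

theorem NormZero.irr_pair :
    sig3 (ρ a) (ρ (c * a * c⁻¹)) = 0 ∧ sig3 (ρ a) (ρ (c⁻¹ * a * c)) = 0 ∧
    sig3 (ρ (c * a * c⁻¹)) (ρ (c⁻¹ * a * c)) = 0 ∧
    (c * a * c⁻¹ * (c⁻¹ * a * c)) ^ 4 = 1 ∧
    (c * a * c⁻¹ * (a * (c⁻¹ * a * c) * a⁻¹)) ^ 10 = 1 ∧
    (c * a * c⁻¹ * (a⁻¹ * (c⁻¹ * a * c) * a)) ^ 10 = 1 ∧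
    c = a * a * (c⁻¹ * a * c) * a * (c * a * c⁻¹) * a * a ∧
    (a * c * a * c) ^ 5 = 1 ∧ ρ ((a * (a * c * a * c)) ^ 2) = -1 ∧
    c = a * c * a * c * a * (a * c * a * c) ^ 4 ∧
    c * a * a * c * c * a * c * a = a⁻¹ * (c * a * a * c * c * a * c) ∧
    SL23Rel (c * a * c⁻¹ * a) (a * (c * a * c⁻¹)) a ∧ ρ ((c * a * c⁻¹ * a) ^ 2) = -1 := by
  have ha' : a⁻¹ = a * a := by
    rw [inv_eq_iff_mul_eq_one, ← pow_orderOf_eq_one a, ha, pow_three]
  have hc' : c⁻¹ = c * c := by
    rw [inv_eq_iff_mul_eq_one, ← pow_orderOf_eq_one c, hc, pow_three]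
  rw [ha', hc']
  refine ⟨?_, ?_, ?_, ?_, ?_, ?_, ?_, ?_, ?_, ?_, ?_, ⟨?_, ?_, ?_, ?_, ?_, ?_⟩, ?_⟩
  · simpa [wd, mul_assoc] using hρ.sig3_wd ha hc hS [false] [true, false, true, true] (by decide)
  · simpa [wd, mul_assoc] using hρ.sig3_wd ha hc hS [false] [true, true, false, true] (by decide)
  · simpa [wd, mul_assoc] using hρ.sig3_wd ha hc hS [true, false, true, true]
      [true, true, false, true] (by decide)
  · simpa only [wd, mul_assoc, List.foldl, cond, one_mul] using hρ.wd_pow_eq_one ha hc hS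
      [true, false, true, true, true, true, false, true] 4 (by decide)
  · simpa only [wd, mul_assoc, List.foldl, cond, one_mul] using hρ.wd_pow_eq_one ha hc hS
      [true, false, true, true, false, true, true, false, true, false, false] 10 (by decide +kernel)
  · simpa only [wd, mul_assoc, List.foldl, cond, one_mul] using hρ.wd_pow_eq_one ha hc hS
      [true, false, true, true, false, false, true, true, false, true, false] 10 (by decide +kernel)
  · simpa only [wd, mul_assoc, List.foldl, cond, one_mul] using hρ.wd_eq_wd ha hc hS [true]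
      [false, false, true, true, false, true, false, true, false, true, true, false, false]
      (by decide)
  · simpa only [wd, mul_assoc, List.foldl, cond, one_mul] using hρ.wd_pow_eq_one ha hc hS
      [false, true, false, true] 5 (by decide)
  · have := hρ.map_wd_pow ha hc hS [false, false, true, false, true] 2
    rw [show (V8.ev [false, false, true, false, true])^[2] V8.one = V8.negOne by decide,
      V8.psi_negOne] at this
    simpa only [wd, mul_assoc, List.foldl, cond, one_mul] using this
  · simpa only [wd, mul_assoc, List.foldl, cond, one_mul, pow_succ, pow_zero] using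
      hρ.wd_eq_wd ha hc hS [true]
      [false, true, false, true, false, false, true, false, true, false, true, false, true,
        false, true, false, true, false, true, false, true] (by decide +kernel)
  · simpa only [wd, mul_assoc, List.foldl, cond, one_mul] using hρ.wd_eq_wd ha hc hS
      [true, false, false, true, true, false, true, false]
      [false, false, true, false, false, true, true, false, true] (by decide)
  · simpa only [wd, mul_assoc, List.foldl, cond, one_mul, pow_succ, pow_zero] using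
      hρ.wd_pow_eq_one ha hc hS [true, false, true, true, false] 4 (by decide)
  · simpa only [wd, mul_assoc, List.foldl, cond, one_mul] using hρ.wd_eq_wd ha hc hS
      [false, true, false, true, true, false, true, false, true, true]
      [true, false, true, true, false, true, false, true, true, false] (by decide)
  · simpa only [wd, mul_assoc, List.foldl, cond, one_mul] using hρ.wd_eq_wd ha hc hS
      [false, true, false, true, true, true, false, true, true, false]
      [true, false, true, true, false, true, false, true, true, false, true, false, true, true,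
        false, false, true, false, true, true] (by decide +kernel)
  · simp only [mul_assoc]
  · simpa only [wd, mul_assoc, List.foldl, cond, one_mul] using hρ.wd_eq_wd ha hc hS
      [false, false, true, false, true, true]
      [true, false, true, true, false, false, true, false, true, true, false] (by decide)
  · rw [← pow_orderOf_eq_one a, ha, pow_three]
  · have := hρ.map_wd_pow ha hc hS [true, false, true, true, false] 2
    rw [show (V8.ev [true, false, true, true, false])^[2] V8.one = V8.negOne by decide,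
      V8.psi_negOne] at this
    simpa only [wd, mul_assoc, List.foldl, cond, one_mul] using this

end Cfsg.Agent.Local
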