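import Mathlib
import Cfsg.Agent.Local.ZasK
import Cfsg.Agent.Local.ZasIrr
import Cfsg.Agent.Local.Quat
import Cfsg.Agent.Local.Thompson
import Cfsg.Agent.S3378

/-! Zassenhaus' theorem on non-solvable Frobenius complements. -/

set_option autoImplicit false

namespace Cfsg.Agent.Local

open Subgroup
open scoped Pointwise commutatorElement

variable {G : Type*} [Group G] [Finite G]

theorem HasNPC.isSolvable {p : ℕ} [Fact p.Prime] {H : Subgroup G} (h1 : HasNPC p H)
    (h2 : Group.IsSolvable h1.compl) : Group.IsSolvable H := by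
  have h4 : (h1.compl.subgroupOf H).Normal :=
    ⟨fun n hn g => conj_mem_of_mem_normalizer (N := h1.compl) (h1.le_normalizer g.2) hn⟩
  obtain ⟨k, hk⟩ := h1.exists_relIndex
  have h5 : Group.IsSolvable (H ⧸ h1.compl.subgroupOf H) :=
    isSolvable_of_isPGroup (IsPGroup.of_card hk)
  have h6 : Group.IsSolvable (h1.compl.subgroupOf H) :=
    Group.isSolvable_of_surjective (f := (subgroupOfEquivOfLe h1.compl_le).symm.toMonoidHom)
      (subgroupOfEquivOfLe h1.compl_le).symm.surjective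
  exact Group.isSolvable_of_ker_le_range (h1.compl.subgroupOf H).subtype
    (QuotientGroup.mk' (h1.compl.subgroupOf H))
    (by rw [QuotientGroup.ker_mk', range_subtype])

theorem isSolvable_of_index_le_four {H : Subgroup G} (hH : Group.IsSolvable H)
    (h : H.index ≤ 4) : Group.IsSolvable G := by
  have h1 : H.normalCore.index ∣ H.index.factorial := by
    rw [normalCore_eq_ker, index_ker, index_eq_card, ← Nat.card_perm]
    exact card_subgroup_dvd_card (MulAction.toPermHom G (G ⧸ H)).range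
  have h2 : Nat.card (G ⧸ H.normalCore) ∣ 24 := h1.trans (Nat.factorial_dvd_factorial h)
  have h3 : Group.IsSolvable (G ⧸ H.normalCore) :=
    Cfsg.Agent.Pres.solvable_of_card_dvd_120 (h2.trans (by norm_num))
      (fun e => by rw [e] at h2; norm_num at h2) (fun e => by rw [e] at h2; norm_num at h2)
  have h4 : Group.IsSolvable H.normalCore := isSolvable_of_le hH H.normalCore_le
  exact Group.isSolvable_of_ker_le_range H.normalCore.subtype (QuotientGroup.mk' H.normalCore)
    (by rw [QuotientGroup.ker_mk', range_subtype])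

theorem FpfGroup.hasNPC_centralizer (hG : FpfGroup G) {p : ℕ} [hp : Fact p.Prime] (hp2 : p ≠ 2)
    {a : G} (ha : orderOf a = p) : HasNPC p (centralizer ({a} : Set G)) := by
  apply hasNPC_of_local
  intro X hXC hX _ x hx hxX hxp
  have := hG.isCyclic_of_ne_two hp.out hp2 hX
  have hxX' : zpowers x ≤ normalizer (X : Set G) := zpowers_le.2 hxX
  have h1 := commutator_inf_centralizer_eq_bot hxX'
    (coprime_card_of_isPGroup hX (by rwa [Nat.card_zpowers]))
  have h2 : ⁅X, zpowers x⁆ ≤ X := commutator_le.2 fun m hm c hc => by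
    rw [commutatorElement_def, mul_assoc, mul_assoc, ← mul_assoc c]
    exact X.mul_mem hm (conj_mem_of_mem_normalizer (hxX' hc) (X.inv_mem hm))
  have h3 : ⁅X, zpowers x⁆ = ⊥ := by
    by_contra h
    obtain ⟨k, hk0, hk⟩ := (hX.to_le h2).nontrivial_iff_card.1 ((nontrivial_iff_ne_bot _).2 h)
    obtain ⟨w, hw, hwo⟩ := exists_mem_orderOf_eq_of_dvd_card hp.out (hk ▸ dvd_pow_self p hk0.ne')
    have h4 := hG.rank_one p hp.out a w ha (hwo ▸ pow_orderOf_eq_one w)
      (mem_centralizer_singleton_iff.1 (hXC (h2 hw)))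
    have h5 : zpowers a ≤ centralizer (zpowers x : Set G) := zpowers_le.2 fun c hc =>
      mem_centralizer_singleton_iff.1 (zpowers_le.2 hx hc)
    have : w ∈ ⁅X, zpowers x⁆ ⊓ centralizer (zpowers x : Set G) := ⟨hw, h5 h4⟩
    rw [h1] at this
    exact ne_one_of_orderOf_eq_prime hp.out hwo this
  intro y hy
  exact (commutator_eq_bot_iff_le_centralizer.1 h3 hy x (mem_zpowers x)).symm

theorem FpfGroup.isSolvable_normalizer_three (hG : FpfGroup G) {a : G} (ha : orderOf a = 3) :
    Group.IsSolvable (normalizer (zpowers a : Set G)) := by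
  have := Fact.mk Nat.prime_three
  have h1 := hG.hasNPC_centralizer (by norm_num) ha
  have h2 : Group.IsSolvable (centralizer ({a} : Set G)) := h1.isSolvable
    (hG.isSolvable_of_not_three_dvd
      ((Nat.Prime.coprime_iff_not_dvd Nat.prime_three).1 (h1.coprime_card Nat.prime_three).symm))
  have h3 : Group.IsSolvable (centralizer (zpowers a : Set G)) :=
    isSolvable_of_le h2 (centralizer_le (Set.singleton_subset_iff.2 (mem_zpowers a)))
  have h4 : Group.IsSolvable (MulAut (zpowers a)) :=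
    Group.isSolvable_of_surjective (f := (IsCyclic.mulAutMulEquiv (zpowers a)).symm.toMonoidHom)
      (IsCyclic.mulAutMulEquiv (zpowers a)).symm.surjective
  refine Group.isSolvable_of_ker_le_range (inclusion (centralizer_le_normalizer _))
    (zpowers a).normalizerMonoidHom fun x hx => ?_
  rw [normalizerMonoidHom_ker] at hx
  exact ⟨⟨x, hx⟩, rfl⟩

variable {A : Type*} [Ring A] [Algebra ℚ A] [Nontrivial A] {ρ : G →* A} (hρ : NormZero ρ)
  (hG : FpfGroup G)
include hρ hG

theorem NormZero.isSolvable_of_rat (hrat : ∀ x y : G, orderOf x = 3 → orderOf y = 3 →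
      sig3 (ρ x) (ρ y) * sig3 (ρ x) (ρ y) ≠ sig3 (ρ x) (ρ y) + 1) : Group.IsSolvable G := by
  by_cases h3 : 3 ∣ Nat.card (⊤ : Subgroup G)
  swap
  · have := hG.isSolvable_of_not_three_dvd h3
    exact Group.isSolvable_of_surjective (f := (topEquiv (G := G)).toMonoidHom)
      topEquiv.surjective
  obtain ⟨a, -, ha⟩ := exists_mem_orderOf_eq_of_dvd_card Nat.prime_three h3
  obtain ⟨b, hb⟩ : ∃ b : G, ∀ c, T3 ρ a c → ∃ k ∈ zpowers a, k * b * k⁻¹ = c := by
    by_cases h : ∃ b, T3 ρ a b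
    · obtain ⟨b, hb⟩ := h
      exact ⟨b, fun c hc => hρ.k1_rat hrat ha hc hb⟩
    · exact ⟨1, fun c hc => absurd ⟨c, hc⟩ h⟩
  let _ : MulAction G (Subgroup G) := MulAction.compHom _ (MulAut.conj (G := G))
  have hst : MulAction.stabilizer G (zpowers a) = normalizer (zpowers a : Set G) := by
    ext g
    exact mem_normalizer_iff_conj_smul_eq.symm
  refine isSolvable_of_index_le_four (hG.isSolvable_normalizer_three ha) ?_
  rw [← hst, MulAction.index_stabilizer]
  have hT : ∀ c, T3 ρ a c → zpowers c ∈ ({zpowers a, zpowers b, zpowers (a * b * a⁻¹),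
      zpowers (a⁻¹ * b * a⁻¹⁻¹)} : Set (Subgroup G)) := by
    intro c hc
    obtain ⟨k, hk, rfl⟩ := hb c hc
    rcases mem_zpowers_three ha hk with rfl | rfl | rfl <;> simp
  refine (Set.ncard_le_ncard (t := {zpowers a, zpowers b, zpowers (a * b * a⁻¹),
      zpowers (a⁻¹ * b * a⁻¹⁻¹)}) ?_).trans ((Set.ncard_insert_le _ _).trans (Nat.succ_le_succ
      ((Set.ncard_insert_le _ _).trans (Nat.succ_le_succ ((Set.ncard_insert_le _ _).trans
        (Nat.succ_le_succ (Set.ncard_singleton _).le))))))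
  rintro _ ⟨g, rfl⟩
  have h1 : g • zpowers a = zpowers (g * a * g⁻¹) := MonoidHom.map_zpowers _ _
  have h2 : orderOf (g * a * g⁻¹) = 3 := (orderOf_conj' g a).trans ha
  beta_reduce
  rw [h1]
  rcases hρ.sig3_cases ha h2 with h | h | h | h | h
  · simp [h]
  · simp [h]
  · exact hT _ ⟨h2, h⟩
  · rw [← zpowers_inv (g := g * a * g⁻¹)]
    exact hT _ ⟨by rwa [orderOf_inv], by rw [hρ.sig3_inv h2, h, sub_self]⟩
  · exact absurd h (hrat _ _ ha h2)

omit hG in
theorem NormZero.exists_sl25 {a c : G} (ha : orderOf a = 3) (hc : orderOf c = 3)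
    (hS : sig3 (ρ a) (ρ c) * sig3 (ρ a) (ρ c) = sig3 (ρ a) (ρ c) + 1) :
    Nat.card (closure ({a, c} : Set G)) = 120 ∧
      Nonempty (closure ({a, c} : Set G) ≃* Matrix.SpecialLinearGroup (Fin 2) (ZMod 5)) := by
  obtain ⟨-, -, -, -, -, -, -, h8, h9, h10, -, h12, h13⟩ := hρ.irr_pair ha hc hS
  have ha3 : a ^ 3 = 1 := ha ▸ pow_orderOf_eq_one a
  have hcen : ∀ g : G, g * (a * (a * c * a * c)) ^ 2 = (a * (a * c * a * c)) ^ 2 * g := fun g =>
    hρ.injective (by rw [map_mul, map_mul, h9, mul_neg_one, neg_one_mul])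
  obtain ⟨φ, h0, h1, h2⟩ := Cfsg.Agent.S3378.exists_hom a (a * c * a * c)
    ((a * (a * c * a * c)) ^ 2) ha3 h8 (hρ.injective (by rw [map_pow, h9, map_one, neg_one_sq]))
    (hcen _) (hcen _) rfl
  have haL : a ∈ closure ({a, c} : Set G) := subset_closure (by simp)
  have hcL : c ∈ closure ({a, c} : Set G) := subset_closure (by simp)
  have hyL : a * c * a * c ∈ closure ({a, c} : Set G) :=
    mul_mem (mul_mem (mul_mem haL hcL) haL) hcL
  have hr : φ.range = closure ({a, c} : Set G) := by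
    apply le_antisymm
    · rintro _ ⟨x, rfl⟩
      refine PresentedGroup.generated_by _ ((closure ({a, c} : Set G)).comap φ) (fun j => ?_) x
      fin_cases j
      · change φ (PresentedGroup.of 0) ∈ closure ({a, c} : Set G)
        rwa [h0]
      · change φ (PresentedGroup.of 1) ∈ closure ({a, c} : Set G)
        rwa [h1]
      · change φ (PresentedGroup.of 2) ∈ closure ({a, c} : Set G)
        rw [h2]
        exact pow_mem (mul_mem haL hyL) 2
    · rw [closure_le]
      have h3 : a ∈ φ.range := ⟨_, h0⟩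
      have h4 : a * c * a * c ∈ φ.range := ⟨_, h1⟩
      rintro _ (rfl | rfl)
      · exact h3
      · rw [h10]
        exact mul_mem (mul_mem h4 h3) (pow_mem h4 4)
  obtain ⟨hfin, hle⟩ := Cfsg.Agent.S3378.card_pres
  have hii : c * a * c⁻¹ * a * (c * a * c⁻¹ * a) ≠ 1 := by
    intro h
    rw [sq, h, map_one] at h13
    exact false_of_zsmul_one A 2 two_ne_zero (by linear_combination (norm := module) h13)
  obtain ⟨ψ, hψ, e1, e2, e3⟩ := h12.exists_injective_hom hii
  have hbL : c * a * c⁻¹ ∈ closure ({a, c} : Set G) := mul_mem (mul_mem hcL haL) (inv_mem hcL)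
  have h24 : 24 ∣ Nat.card (closure ({a, c} : Set G)) := by
    rw [← card_SL23, Nat.card_congr (MonoidHom.ofInjective hψ).toEquiv]
    refine card_dvd_of_le ?_
    rintro _ ⟨x, rfl⟩
    obtain ⟨x, rfl⟩ := sl23Nf_bijective.2 x
    simp only [sl23Nf, map_mul, map_pow, e1, e2, e3]
    exact mul_mem (mul_mem (pow_mem (mul_mem hbL haL) _) (pow_mem (mul_mem haL hbL) _))
      (pow_mem haL _)
  have hy1 : a * c * a * c ≠ 1 := by
    intro h
    rw [h, mul_one, map_pow, sq, hρ.of_three ha] at h9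
    have h5 := hρ.of_three ha
    have h6 : ρ a = 0 := by linear_combination (norm := module) -h9
    rw [h6] at h5
    simp at h5
  have := Fact.mk Nat.prime_five
  have h5 : 5 ∣ Nat.card (closure ({a, c} : Set G)) :=
    orderOf_eq_prime h8 hy1 ▸ orderOf_dvd_card_of_mem hyL
  have h120 : 120 ∣ Nat.card (closure ({a, c} : Set G)) :=
    Nat.Coprime.mul_dvd_of_dvd_of_dvd (by norm_num : Nat.Coprime 24 5) h24 h5
  have hle' : Nat.card (closure ({a, c} : Set G)) ≤ Nat.card (PresentedGroup S3378.R) := by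
    rw [← hr]
    exact Nat.card_le_card_of_surjective _ φ.rangeRestrict_surjective
  have hge := Nat.le_of_dvd Nat.card_pos h120
  refine ⟨by omega, ?_⟩
  obtain ⟨e⟩ := Cfsg.Agent.S3378.pres_sl
  have hbij : Function.Bijective φ.rangeRestrict :=
    φ.rangeRestrict_surjective.bijective_of_nat_card_le (by rw [hr]; omega)
  exact ⟨(MulEquiv.subgroupCongr hr).symm.trans ((MulEquiv.ofBijective _ hbij).symm.trans e)⟩

theorem NormZero.mem_closure_of_three {a c : G} (ha : orderOf a = 3) (hc : orderOf c = 3)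
    (hS : sig3 (ρ a) (ρ c) * sig3 (ρ a) (ρ c) = sig3 (ρ a) (ρ c) + 1) {d : G}
    (hd : orderOf d = 3) : d ∈ closure ({a, c} : Set G) := by
  obtain ⟨h1, h2, h3, -⟩ := hρ.irr_pair ha hc hS
  have haL : a ∈ closure ({a, c} : Set G) := subset_closure (by simp)
  have hcL : c ∈ closure ({a, c} : Set G) := subset_closure (by simp)
  have ho : ∀ g : G, orderOf (g⁻¹ * a * g) = 3 := fun g => by
    simpa using (orderOf_conj' g⁻¹ a).trans ha
  have hT : ∀ d, T3 ρ a d → d ∈ closure ({a, c} : Set G) := by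
    intro d hd
    obtain ⟨k, hk, h⟩ := hρ.k2 hG ha ⟨(orderOf_conj' c a).trans ha, h1⟩ ⟨ho c, h2⟩ hd h3
    have hkL := zpowers_le.2 haL hk
    have : k * d * k⁻¹ ∈ closure ({a, c} : Set G) := by
      rcases h with h | h <;> rw [h]
      · exact mul_mem (mul_mem hcL haL) (inv_mem hcL)
      · exact mul_mem (mul_mem (inv_mem hcL) haL) hcL
    exact (mul_mem_cancel_left hkL).1 ((mul_mem_cancel_right (inv_mem hkL)).1 this)
  rcases hρ.sig3_cases ha hd with h | h | h | h | h
  · exact h ▸ haL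
  · exact h ▸ inv_mem haL
  · exact hT d ⟨hd, h⟩
  · exact inv_mem_iff.1 (hT _ ⟨by rwa [orderOf_inv], by rw [hρ.sig3_inv hd, h, sub_self]⟩)
  · obtain ⟨k1, k2, -, -, -, -, k3, -⟩ := hρ.irr_pair ha hd h
    have m1 := hT _ ⟨(orderOf_conj' d a).trans ha, k1⟩
    have m2 := hT _ ⟨ho d, k2⟩
    rw [k3]
    exact mul_mem (mul_mem (mul_mem (mul_mem (mul_mem (mul_mem haL haL) m2) haL) m1) haL) haL

theorem NormZero.normal_closure {a c : G} (ha : orderOf a = 3) (hc : orderOf c = 3)
    (hS : sig3 (ρ a) (ρ c) * sig3 (ρ a) (ρ c) = sig3 (ρ a) (ρ c) + 1) :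
    (closure ({a, c} : Set G)).Normal := by
  refine normal_of_forall_mem_normalizer fun g => mem_normalizer_of_conj_mem fun n hn => ?_
  have : closure ({a, c} : Set G) ≤ (closure ({a, c} : Set G)).comap (MulAut.conj g).toMonoidHom := by
    rw [closure_le]
    rintro _ (rfl | rfl)
    · exact hρ.mem_closure_of_three hG ha hc hS ((orderOf_conj' g _).trans ha)
    · exact hρ.mem_closure_of_three hG ha hc hS ((orderOf_conj' g _).trans hc)
  exact this hn

theorem NormZero.index_cases {a c : G} (ha : orderOf a = 3) (hc : orderOf c = 3)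
    (hS : sig3 (ρ a) (ρ c) * sig3 (ρ a) (ρ c) = sig3 (ρ a) (ρ c) + 1) {K : Subgroup G}
    (hLK : closure ({a, c} : Set G) ≤ K)
    (hCK : centralizer (closure ({a, c} : Set G) : Set G) ≤ K) : K.index = 1 ∨ K.index = 2 := by
  obtain ⟨h1, h2, h3, h4, h5, h6, h7, -, -, -, h11, -⟩ := hρ.irr_pair ha hc hS
  obtain ⟨hcard, -⟩ := hρ.exists_sl25 ha hc hS
  set L := closure ({a, c} : Set G) with hL
  have haL : a ∈ L := subset_closure (by simp)
  have hcL : c ∈ L := subset_closure (by simp)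
  set b₁ := c * a * c⁻¹ with hb₁
  set b₂ := c⁻¹ * a * c with hb₂
  have hb1 : T3 ρ a b₁ := ⟨(orderOf_conj' c a).trans ha, h1⟩
  have hb2 : T3 ρ a b₂ := ⟨by simpa using (orderOf_conj' c⁻¹ a).trans ha, h2⟩
  have := Fact.mk Nat.prime_three
  -- every element is a product of an element of `L` and one centralising `a`
  have hfr : ∀ g : G, ∃ l ∈ L, (l * g) * a = a * (l * g) := by
    intro g
    have hsyl : ∀ d, orderOf d = 3 → IsSylowIn 3 (zpowers d) L := fun d hd =>
      ⟨zpowers_le.2 (hρ.mem_closure_of_three hG ha hc hS hd), isPGroup_zpowers_of_orderOf_eq hd,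
        fun h => by
          have := card_mul_relIndex (zpowers_le.2 (hρ.mem_closure_of_three hG ha hc hS hd))
          rw [Nat.card_zpowers, hd, hcard] at this
          change 3 * (zpowers d).relIndex L = 120 at this
          omega⟩
    obtain ⟨n, hn, h⟩ := (hsyl _ ((orderOf_conj' g a).trans ha)).exists_conj (hsyl a ha)
    have h' : n * (g * a * g⁻¹) * n⁻¹ ∈ zpowers a := h ▸ conj_mem_conj_smul n (mem_zpowers _)
    have htL : c * a * a * c * c * a * c ∈ L :=
      mul_mem (mul_mem (mul_mem (mul_mem (mul_mem (mul_mem hcL haL) haL) hcL) hcL) haL) hcL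
    rcases mem_zpowers_three ha h' with h' | h' | h'
    · exact absurd (by simpa using h') (ne_one_of_orderOf_eq_prime Nat.prime_three ha)
    · exact ⟨n, hn, by rw [← h']; nth_rw 1 [h']; group⟩
    · refine ⟨(c * a * a * c * c * a * c)⁻¹ * n, mul_mem (inv_mem htL) hn, ?_⟩
      generalize c * a * a * c * c * a * c = t at h11
      have e1 : n * g * a = a⁻¹ * (n * g) := by rw [← h']; group
      rw [mul_assoc t⁻¹, mul_assoc t⁻¹, e1, ← mul_assoc a, ← mul_assoc t⁻¹]
      congr 1
      rw [inv_mul_eq_iff_eq_mul, ← mul_assoc, h11, mul_inv_cancel_right]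
  have huniq : ∀ k ∈ zpowers a, sig3 (ρ b₁) (ρ (k * b₂ * k⁻¹)) = 0 → k * b₂ * k⁻¹ = b₂ := by
    intro k hk h
    have key : (b₁ * (k * b₂ * k⁻¹)) ^ 10 ≠ 1 := by
      intro h10
      rw [hρ.sig3_eq hb1.1 (hb2.conj_zpowers hk).1] at h
      generalize b₁ * (k * b₂ * k⁻¹) = g at h h10
      have e1 : ρ g * ρ g⁻¹ = 1 := by rw [← map_mul, mul_inv_cancel, map_one]
      have e2 : ρ g ^ 2 = -1 := by linear_combination (norm := noncomm_ring) ρ g * h - e1
      have e3 := congrArg ρ h10
      rw [map_pow, map_one, show 10 = 2 * 5 from rfl, pow_mul, e2] at e3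
      exact false_of_zsmul_one A 2 two_ne_zero (by
        linear_combination (norm := noncomm_ring) -e3)
    rcases mem_zpowers_three ha hk with rfl | rfl | rfl
    · group
    · exact absurd h5 key
    · exact absurd (by rwa [inv_inv]) key
  have hne : ∀ k ∈ zpowers a, k * b₂ * k⁻¹ ≠ b₁ := by
    intro k hk h
    have key : (b₁ * (k * b₂ * k⁻¹)) ^ 20 = 1 := by
      rcases mem_zpowers_three ha hk with rfl | rfl | rfl
      · rw [one_mul, inv_one, mul_one, show 20 = 4 * 5 from rfl, pow_mul, h4, one_pow]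
      · rw [show 20 = 10 * 2 from rfl, pow_mul, h5, one_pow]
      · rw [inv_inv, show 20 = 10 * 2 from rfl, pow_mul, h6, one_pow]
    rw [h, ← sq, ← pow_mul] at key
    have := orderOf_dvd_of_pow_eq_one key
    rw [hb1.1] at this
    norm_num at this
  have hfix : ∀ g : G, g * a = a * g → ∀ k ∈ zpowers a, k * (g * b₁ * g⁻¹) * k⁻¹ = b₁ → g ∈ K := by
    intro g hg k hk h
    have hka := comm_zpowers a k hk a (mem_zpowers a)
    have e1 : k * g * a = a * (k * g) := by rw [mul_assoc, hg, ← mul_assoc, hka, mul_assoc]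
    have e2 : k * g * b₁ * (k * g)⁻¹ = b₁ := by rw [← h]; nth_rw 1 [h]; group
    rw [← mul_mem_cancel_left (hLK (zpowers_le.2 haL hk))]
    generalize k * g = u at e1 e2
    have e3 : u * b₂ * u⁻¹ = b₂ := by
      obtain ⟨l, hl, h' | h'⟩ := hρ.k2 hG ha hb1 hb2 (hb2.conj e1) h3
      · exfalso
        have hlu : u⁻¹ * l * u = l := by
          obtain ⟨n, rfl⟩ := hl
          rw [mul_assoc, (Commute.zpow_left e1.symm n).eq, inv_mul_cancel_left]
        refine hne l hl ?_
        rw [← hlu]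
        calc _ = u⁻¹ * (l * (u * b₂ * u⁻¹) * l⁻¹) * u := by group
          _ = u⁻¹ * (u * b₁ * u⁻¹) * u := by rw [h', e2]
          _ = b₁ := by group
      · have e4 : u * b₂ * u⁻¹ = l⁻¹ * b₂ * l⁻¹⁻¹ := by rw [← h']; nth_rw 1 [h']; group
        rw [e4]
        refine huniq _ (inv_mem hl) ?_
        rw [← e4, ← e2, sig3_conj, h3, mul_zero, zero_mul]
    refine hCK fun x hx => ?_
    have : L ≤ centralizer {u} := by
      have m0 : a ∈ centralizer ({u} : Set G) := mem_centralizer_singleton_iff.2 e1.symm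
      have m1 : b₁ ∈ centralizer ({u} : Set G) :=
        mem_centralizer_singleton_iff.2 (mul_inv_eq_iff_eq_mul.1 e2).symm
      have m2 : b₂ ∈ centralizer ({u} : Set G) :=
        mem_centralizer_singleton_iff.2 (mul_inv_eq_iff_eq_mul.1 e3).symm
      rw [hL, closure_le]
      rintro _ (rfl | rfl)
      · exact m0
      · rw [h7]
        exact mul_mem (mul_mem (mul_mem (mul_mem (mul_mem (mul_mem m0 m0) m2) m0) m1) m0) m0
    exact mem_centralizer_singleton_iff.1 (this hx)
  have hswap : ∀ g : G, g * a = a * g → g ∉ K →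
      ∃ k ∈ zpowers a, k * (g * b₁ * g⁻¹) * k⁻¹ = b₂ := by
    intro g hg hgK
    obtain ⟨k, hk, h | h⟩ := hρ.k2 hG ha hb1 hb2 (hb1.conj hg) h3
    · exact absurd (hfix g hg k hk h) hgK
    · exact ⟨k, hk, h⟩
  have hLn := hρ.normal_closure hG ha hc hS
  by_cases hK : K = ⊤
  · exact Or.inl (index_eq_one.2 hK)
  right
  obtain ⟨g₀, hg₀⟩ : ∃ g, g ∉ K := by
    by_contra h
    push Not at h
    exact hK (eq_top_iff.2 fun g _ => h g)
  obtain ⟨l₀, hl₀, e₀⟩ := hfr g₀
  have hu₀ : l₀ * g₀ ∉ K := by rwa [mul_mem_cancel_left (hLK hl₀)]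
  generalize l₀ * g₀ = u at e₀ hu₀
  refine index_eq_two_iff_exists_notMem_and'.2 ⟨u⁻¹, by rwa [inv_mem_iff], fun g => ?_⟩
  by_cases hg : g ∈ K
  · exact Or.inr hg
  left
  obtain ⟨l, hl, e⟩ := hfr g
  obtain ⟨k₀, hk₀, f₀⟩ := hswap u e₀ hu₀
  obtain ⟨k, hk, f⟩ := hswap _ e (by rwa [mul_mem_cancel_left (hLK hl)])
  have hku : u⁻¹ * (k₀⁻¹ * k) * u = k₀⁻¹ * k := by
    obtain ⟨n, hn⟩ := mul_mem (inv_mem hk₀) hk
    rw [← hn, mul_assoc, (Commute.zpow_left e₀.symm n).eq, inv_mul_cancel_left]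
  have h8 := hfix (u⁻¹ * (l * g)) (by
    rw [mul_assoc, e, ← mul_assoc, ← mul_assoc, (Commute.inv_left e₀).eq, mul_assoc a, mul_assoc a,
      mul_assoc]) _ (mul_mem (inv_mem hk₀) hk) (by
    rw [← hku]
    calc _ = u⁻¹ * k₀⁻¹ * (k * (l * g * b₁ * (l * g)⁻¹) * k⁻¹) * k₀ * u := by group
      _ = u⁻¹ * k₀⁻¹ * (k₀ * (u * b₁ * u⁻¹) * k₀⁻¹) * k₀ * u := by rw [f, f₀]
      _ = b₁ := by group)
  have h9 : u⁻¹ * (l * g) = u⁻¹ * l * u⁻¹⁻¹ * (u⁻¹ * g) := by group
  rwa [h9, mul_mem_cancel_left (hLK (hLn.conj_mem l hl u⁻¹))] at h8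

theorem NormZero.zassenhaus (hns : ¬ Group.IsSolvable G) :
    ∃ G₀ : Subgroup G, G₀.Normal ∧ (G₀.index = 1 ∨ G₀.index = 2) ∧
      ∃ S M : Subgroup G, S ⊔ M = G₀ ∧ S ⊓ M = ⊥ ∧ (∀ s ∈ S, ∀ x ∈ M, s * x = x * s) ∧
        Nonempty (S ≃* Matrix.SpecialLinearGroup (Fin 2) (ZMod 5)) ∧
        (∀ (p : ℕ) [Fact p.Prime] (P : Sylow p M), IsCyclic P) ∧ (Nat.card M).Coprime 30 := by
  obtain ⟨a, c, ha, hc, hS⟩ : ∃ a c : G, orderOf a = 3 ∧ orderOf c = 3 ∧
      sig3 (ρ a) (ρ c) * sig3 (ρ a) (ρ c) = sig3 (ρ a) (ρ c) + 1 := by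
    by_contra h
    push Not at h
    exact hns (hρ.isSolvable_of_rat hG h)
  obtain ⟨-, -, -, -, -, -, -, h8, h9, -, -, h12, h13⟩ := hρ.irr_pair ha hc hS
  obtain ⟨hcard, he⟩ := hρ.exists_sl25 ha hc hS
  have hLn := hρ.normal_closure hG ha hc hS
  have hidx := fun K => hρ.index_cases hG ha hc hS (K := K)
  set L := closure ({a, c} : Set G) with hL
  have haL : a ∈ L := subset_closure (by simp)
  have hcL : c ∈ L := subset_closure (by simp)
  have hyL : a * c * a * c ∈ L := mul_mem (mul_mem (mul_mem haL hcL) haL) hcL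
  have hiL : c * a * c⁻¹ * a ∈ L := mul_mem (mul_mem (mul_mem hcL haL) (inv_mem hcL)) haL
  generalize a * c * a * c = y at h8 h9 hyL
  generalize a * (c * a * c⁻¹) = j at h12
  generalize c * a * c⁻¹ * a = i at h12 h13 hiL
  have hzL : (a * y) ^ 2 ∈ L := pow_mem (mul_mem haL hyL) 2
  have hneg : ∀ g : G, ρ g = -1 → g ≠ 1 := fun g hg h => by
    rw [h, map_one] at hg
    exact false_of_zsmul_one A 2 two_ne_zero (by linear_combination (norm := module) hg)
  have hay : a * y ≠ y * a := by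
    intro h
    refine hneg (((a * y) ^ 2) ^ 15) (by rw [map_pow, h9]; norm_num) ?_
    rw [← pow_mul, Commute.mul_pow h, show 2 * 15 = 3 * 10 from rfl, pow_mul, ← ha,
      pow_orderOf_eq_one, ha, show 3 * 10 = 5 * 6 from rfl, pow_mul, h8]
    simp
  have hy : orderOf y = 5 := by
    have := Fact.mk Nat.prime_five
    exact orderOf_eq_prime h8 fun h => hay (by rw [h, mul_one, one_mul])
  generalize (a * y) ^ 2 = z at h9 hzL
  have hz1 := hneg z h9
  have hzz : z * z = 1 := hρ.injective (by rw [map_mul, h9, map_one, neg_mul_neg, mul_one])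
  have hzc : ∀ g : G, g * z = z * g := fun g =>
    hρ.injective (by rw [map_mul, map_mul, h9, mul_neg_one, neg_one_mul])
  set C := centralizer (L : Set G) with hC
  have hprime : ∀ (p : ℕ) (x d : G), p.Prime → x ∈ L → orderOf x = p → d ∈ C → orderOf d = p →
      x ∈ C := fun p x d hp hx hxo hd hdo =>
    zpowers_le.2 hd (mem_zpowers_of_orderOf_prime hp hxo (hG.rank_one p hp x d hxo
      (hdo ▸ pow_orderOf_eq_one d) (hd x hx).symm) (ne_one_of_orderOf_eq_prime hp hdo))
  have h4 : ∀ w ∈ C, orderOf w ≠ 4 := by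
    intro w hw hwo
    have e1 : ρ (w ^ 2) = -1 := hρ.of_two (by rw [orderOf_pow, hwo]; rfl)
    have e2 : w * i * (w * i) = 1 := hρ.injective (by
      rw [← sq, Commute.mul_pow (hw i hiL).symm, map_mul, e1, h13, map_one, neg_mul_neg, mul_one])
    have e3 : i ∈ C := by
      rcases hG.involution_unique hzz hz1 e2 with h | h
      · rw [eq_inv_of_mul_eq_one_right h]
        exact inv_mem hw
      · rw [eq_inv_mul_of_mul_eq h]
        exact mul_mem (inv_mem hw) fun g _ => hzc g
    have e4 : i = j := mul_right_cancel ((e3 a haL).symm.trans h12.ai)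
    subst e4
    exact hneg _ h13 (by rw [sq, h12.ji, h12.i4])
  have h2 : ∀ X : Subgroup G, X ≤ C → IsPGroup 2 X → ∀ x ∈ X, x = 1 ∨ x = z := by
    intro X hXC hX x hx
    refine hG.involution_unique hzz hz1 ?_
    obtain ⟨k, hk⟩ := IsPGroup.iff_orderOf.1 hX ⟨x, hx⟩
    rw [← orderOf_coe] at hk
    change orderOf x = _ at hk
    rcases Nat.lt_or_ge k 2 with h | h
    · rw [← sq, ← orderOf_dvd_iff_pow_eq_one, hk]
      exact (pow_dvd_pow 2 (Nat.le_of_lt_succ h)).trans (by norm_num)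
    · exact absurd (orderOf_pow_orderOf_div (orderOf_pos x).ne' (hk ▸ pow_dvd_pow 2 h))
        (h4 _ (pow_mem (hXC hx) _))
  have hN : HasNPC 2 C := by
    apply hasNPC_of_local
    intro X hXC hX _ x _ _ _ w hw
    rcases h2 X hXC hX w hw with rfl | rfl
    · rw [one_mul, mul_one]
    · exact (hzc x).symm
  have hM2 := hN.coprime_card Nat.prime_two
  have hM3 : (Nat.card hN.compl).Coprime 3 := by
    rw [Nat.coprime_comm, Nat.Prime.coprime_iff_not_dvd Nat.prime_three]
    intro h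
    obtain ⟨d, hd, hdo⟩ := exists_mem_orderOf_eq_of_dvd_card Nat.prime_three h
    exact hay (hprime 3 a d Nat.prime_three haL ha hd.1 hdo y hyL).symm
  have hM5 : (Nat.card hN.compl).Coprime 5 := by
    rw [Nat.coprime_comm, Nat.Prime.coprime_iff_not_dvd Nat.prime_five]
    intro h
    obtain ⟨d, hd, hdo⟩ := exists_mem_orderOf_eq_of_dvd_card Nat.prime_five h
    exact hay (hprime 5 y d Nat.prime_five hyL hy hd.1 hdo a haL)
  have hZ : IsZGroup hN.compl := hG.isZGroup fun P hP hP2 => by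
    have : P = ⊥ := eq_bot_iff.2 fun x hx =>
      mem_bot.2 (eq_one_of_mem_isPGroup_of_coprime hP2 hx (hP hx).2)
    rw [this]
    infer_instance
  have hCK : C ≤ L ⊔ hN.compl := by
    obtain ⟨P, hP⟩ := exists_isSylowIn 2 C
    refine (hN.sup_compl hP).ge.trans (sup_le_sup_right (fun x hx => ?_) _)
    rcases h2 P hP.le hP.isPGroup x hx with rfl | rfl
    · exact one_mem _
    · exact hzL
  have hMn : hN.compl.Normal := normal_of_forall_mem_normalizer fun g =>
    hN.normalizer_le (le_normalizer_of_normal' ⊤ C (mem_top g))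
  refine ⟨L ⊔ hN.compl, inferInstance, hidx _ le_sup_left hCK, L, hN.compl, rfl,
    eq_bot_iff.2 fun x hx => eq_one_of_mem_of_coprime ?_ hx.1 hx.2, fun s hs x hx => hx.1 s hs, he,
    fun p hp P => IsZGroup.isZGroup p hp.out P, (hM2.mul_right hM3).mul_right hM5⟩
  rw [hcard]
  exact (((hM2.pow_right 3).mul_right hM3).mul_right hM5).symm

end Cfsg.Agent.Local
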